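import Cfsg.Agent.H587.S8.Out
import Cfsg.Agent.H704.S8.Defs3

/-!
# S4908, OUT rows: `OutB` and `OutRow3` from a self-centralising Sylow subgroup of prime order (helper587)

Hypotheses of `outB` / `outRow3`: an element `w` of prime order `q ≥ 7` with `|C_X(w)| = q`, `q² ∤ |X|`,
`|X| / q % q = (q - 1) / 2`, trivial centre, `|Out X| = 2`, and no involutory automorphism fixes `w`.
-/

set_option autoImplicit false

namespace Cfsg.Agent.H587.S8

open Cfsg Cfsg.Agent.H704.S8

universe u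

variable {X : Type u} [Group X] [Finite X] {q : ℕ} [hq : Fact q.Prime]

/-- orders in `Aut X` -/
theorem aut_facts (hZ : Subgroup.center X = ⊥) (hi : (MulAut.conj : X →* MulAut X).range.index = 2) {w : X}
    (hw : orderOf w = q) (hc : Nat.card (Subgroup.centralizer ({w} : Set X)) = q)
    (hO : ∀ α : MulAut X, α * α = 1 → α w = w → α = 1) :
    Function.Injective (MulAut.conj : X →* MulAut X) ∧ orderOf (MulAut.conj w) = q ∧
      Nat.card (MulAut X) = 2 * Nat.card X ∧
      Nat.card (Subgroup.centralizer ({MulAut.conj w} : Set (MulAut X))) = q := by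
  have hinj : Function.Injective (MulAut.conj : X →* MulAut X) := by
    rw [← MonoidHom.ker_eq_bot_iff, eq_bot_iff, ← hZ]
    intro g hg
    rw [Subgroup.mem_center_iff]
    intro x
    have h1 := DFunLike.congr_fun (MonoidHom.mem_ker.1 hg) x
    rw [MulAut.conj_apply, MulAut.one_apply] at h1
    rw [← mul_inv_eq_iff_eq_mul.1 h1]
  have h2 : orderOf (MulAut.conj w) = q := by
    rw [← hw]
    exact orderOf_injective _ hinj w
  have hf : Finite (MulAut X) := inferInstance
  have h3 : Nat.card (MulAut X) = 2 * Nat.card X := by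
    have h := Subgroup.card_mul_index (MulAut.conj : X →* MulAut X).range
    rw [hi, ← Nat.card_congr (MonoidHom.ofInjective hinj).toEquiv] at h
    rw [← h, mul_comm]
  refine ⟨hinj, h2, h3, ?_⟩
  set C : Subgroup (MulAut X) := Subgroup.centralizer ({MulAut.conj w} : Set (MulAut X)) with hC
  have hmem : ∀ α : MulAut X, α ∈ C ↔ α w = w := by
    intro α
    rw [hC, Subgroup.mem_centralizer_singleton_iff]
    have e1 : α * MulAut.conj w = MulAut.conj (α w) * α := by
      ext x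
      simp [MulAut.conj_apply]
    rw [e1]
    constructor
    · intro h
      exact hinj (mul_right_cancel h)
    · intro h
      rw [h]
  -- the inner part
  have h4 : C ⊓ (MulAut.conj : X →* MulAut X).range = (Subgroup.centralizer ({w} : Set X)).map MulAut.conj := by
    ext α
    rw [Subgroup.mem_inf, hmem, Subgroup.mem_map]
    constructor
    · rintro ⟨h, g, rfl⟩
      refine ⟨g, ?_, rfl⟩
      rw [Subgroup.mem_centralizer_singleton_iff]
      rw [MulAut.conj_apply] at h
      exact mul_inv_eq_iff_eq_mul.1 h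
    · rintro ⟨g, h, rfl⟩
      refine ⟨?_, g, rfl⟩
      rw [Subgroup.mem_centralizer_singleton_iff] at h
      rw [MulAut.conj_apply]
      exact mul_inv_eq_iff_eq_mul.2 h
  have h5 : Nat.card (C ⊓ (MulAut.conj : X →* MulAut X).range : Subgroup (MulAut X)) = q := by
    rw [h4, Subgroup.card_map_of_injective hinj, hc]
  have h6 : Nat.card C ∣ 2 * q := by
    have h := Subgroup.card_mul_index ((MulAut.conj : X →* MulAut X).range.subgroupOf C)
    have h7 : ((MulAut.conj : X →* MulAut X).range.subgroupOf C).index ∣ 2 := by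
      have : (MulAut.conj : X →* MulAut X).range.relIndex C ∣ (MulAut.conj : X →* MulAut X).range.index :=
        Subgroup.relIndex_dvd_index_of_normal _ _
      rw [hi] at this
      exact this
    have h8 : Nat.card ((MulAut.conj : X →* MulAut X).range.subgroupOf C) = q := by
      rw [← h5, inf_comm, ← Subgroup.inf_subgroupOf_right]
      exact Nat.card_congr (Subgroup.subgroupOfEquivOfLe inf_le_right).toEquiv
    rw [← h, h8, mul_comm]
    exact Nat.mul_dvd_mul_right h7 q
  have h7 : ¬ 2 ∣ Nat.card C := by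
    intro h
    have : Fact (Nat.Prime 2) := ⟨Nat.prime_two⟩
    obtain ⟨a, ha⟩ := exists_prime_orderOf_dvd_card' (G := C) 2 h
    have h8 : (a : MulAut X) = 1 := by
      refine hO a ?_ ((hmem _).1 a.2)
      have := pow_orderOf_eq_one a
      rw [ha, pow_two] at this
      exact congrArg Subtype.val this
    rw [Subtype.ext (a1 := a) (a2 := 1) h8, orderOf_one] at ha
    exact absurd ha (by norm_num)
  have h8 : q ∣ Nat.card C := by
    rw [← h5]
    exact Subgroup.card_dvd_of_le inf_le_left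
  obtain ⟨m, hm⟩ := h8
  rw [hm] at h6 h7
  have h9 : m ∣ 2 := by
    rw [mul_comm 2 q] at h6
    exact Nat.dvd_of_mul_dvd_mul_left hq.out.pos h6
  rcases (Nat.dvd_prime Nat.prime_two).1 h9 with rfl | rfl
  · rw [hm, mul_one]
  · exact absurd (Dvd.intro_left q rfl) h7

/-- **OutB** -/
theorem outB (h7 : 7 ≤ q) {w : X} (hw : orderOf w = q) (hc : Nat.card (Subgroup.centralizer ({w} : Set X)) = q)
    (hqq : ¬ q ^ 2 ∣ Nat.card X) (he : Nat.card X / q % q = (q - 1) / 2)
    (hZ : Subgroup.center X = ⊥) (hi : (MulAut.conj : X →* MulAut X).range.index = 2)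
    (hO : ∀ α : MulAut X, α * α = 1 → α w = w → α = 1) :
    OutB X := by
  obtain ⟨hinj, h2, h3, h4⟩ := aut_facts hZ hi hw hc hO
  have hodd : q % 2 = 1 := by
    rcases hq.out.eq_two_or_odd with h | h
    · omega
    · exact h
  have hq2 : q ≠ 2 := by omega
  have hq0 : 0 < q := hq.out.pos
  obtain ⟨m, hm⟩ : q ∣ Nat.card X := hw ▸ orderOf_dvd_natCard w
  obtain ⟨k, hk⟩ : ∃ k : ℕ, q = 2 * k + 1 := ⟨q / 2, by omega⟩
  have hk3 : 3 ≤ k := by omega
  have hke : (q - 1) / 2 = k := by omega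
  have hmk : m % q = k := by
    rw [hm, Nat.mul_div_cancel_left _ hq0, hke] at he
    exact he
  have hqA : ¬ q ^ 2 ∣ Nat.card (MulAut X) := by
    rw [h3]
    intro h
    have h1 : Nat.Coprime (q ^ 2) 2 := by
      refine Nat.Coprime.pow_left 2 ?_
      rw [Nat.coprime_primes hq.out Nat.prime_two]
      exact hq2
    exact hqq (h1.dvd_of_dvd_mul_left h)
  have heX : Nat.card X / q % q = k := by
    rw [hm, Nat.mul_div_cancel_left _ hq0]
    exact hmk
  have heA : Nat.card (MulAut X) / q % q = 2 * k := by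
    rw [h3, hm, show 2 * (q * m) = q * (2 * m) by ring, Nat.mul_div_cancel_left _ hq0, Nat.mul_mod, hmk,
      Nat.mod_eq_of_lt (show 2 < q by omega)]
    exact Nat.mod_eq_of_lt (by omega)
  obtain ⟨d, hd, h1⟩ := exists_exc hq2 hw hc hqq (e := k) (t := 2) (by omega) heX
  -- `2 d ≡ ∓ 1`
  have h5 : ∃ s : ℤ, (s = 1 ∨ s = -1) ∧ (q : ℤ) ∣ 2 * d - s := by
    rcases h1 with h1 | h1
    · refine ⟨-1, Or.inr rfl, ?_⟩
      obtain ⟨c, hc⟩ := (Int.modEq_iff_dvd.1 h1.symm)
      exact ⟨2 * c + 1, by rw [hk] at hc ⊢; push_cast at hc ⊢; linarith⟩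
    · refine ⟨1, Or.inl rfl, ?_⟩
      obtain ⟨c, hc⟩ := (Int.modEq_iff_dvd.1 h1.symm)
      exact ⟨2 * c - 1, by rw [hk] at hc ⊢; push_cast at hc ⊢; linarith⟩
  obtain ⟨s, hs, h5⟩ := h5
  have hq7 : (7 : ℤ) ≤ q := by exact_mod_cast h7
  refine ⟨d, hd, fun hdA => ?_, fun e he2 hed => ?_⟩
  · have h6 := degree_mod hq2 h2 h4 hqA (e := 2 * k) (t := 1) (by omega) heA hdA
    have e1 : ((2 * k : ℕ) : ℤ) = q - 1 := by
      rw [hk]
      push_cast
      ring
    rw [e1] at h6
    have h8 : ∃ r : ℤ, (r = 0 ∨ r = 1 ∨ r = -1) ∧ (q : ℤ) ∣ d - r := by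
      rcases h6 with h6 | h6 | h6 | h6 | h6
      · exact ⟨0, Or.inl rfl, Int.modEq_iff_dvd.1 h6.symm⟩
      · exact ⟨1, Or.inr (Or.inl rfl), Int.modEq_iff_dvd.1 h6.symm⟩
      · exact ⟨-1, Or.inr (Or.inr rfl), Int.modEq_iff_dvd.1 h6.symm⟩
      · refine ⟨-1, Or.inr (Or.inr rfl), ?_⟩
        obtain ⟨c, hc⟩ := (Int.modEq_iff_dvd.1 h6.symm)
        exact ⟨c + 1, by linarith⟩
      · refine ⟨1, Or.inr (Or.inl rfl), ?_⟩
        obtain ⟨c, hc⟩ := (Int.modEq_iff_dvd.1 h6.symm)
        exact ⟨c - 1, by linarith⟩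
    obtain ⟨r, hr, h8⟩ := h8
    have h9 : (q : ℤ) ∣ 2 * r - s := by
      have := dvd_sub h5 (h8.mul_left 2)
      rwa [show 2 * (d : ℤ) - s - 2 * (d - r) = 2 * r - s by ring] at this
    have h10 : |2 * r - s| < q := by
      rw [abs_lt]
      rcases hr with rfl | rfl | rfl <;> rcases hs with rfl | rfl <;> constructor <;> linarith
    have h11 := Int.eq_zero_of_abs_lt_dvd h9 h10
    rcases hr with rfl | rfl | rfl <;> rcases hs with rfl | rfl <;> omega
  · -- `2 e = d`: `4 e ≡ ∓ 1`, but `2 e ≡ 0, ± 2, ± 1`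
    have h6 := degree_mod hq2 hw hc hqq (e := k) (t := 2) (by omega) heX he2
    have h8 : ∃ r : ℤ, (r = 0 ∨ r = 2 ∨ r = -2 ∨ r = 1 ∨ r = -1) ∧ (q : ℤ) ∣ 2 * e - r := by
      rcases h6 with h6 | h6 | h6 | h6 | h6 <;> obtain ⟨c, hc⟩ := (Int.modEq_iff_dvd.1 h6.symm)
      · exact ⟨0, Or.inl rfl, 2 * c, by linarith⟩
      · exact ⟨2, Or.inr (Or.inl rfl), 2 * c, by linarith⟩
      · exact ⟨-2, Or.inr (Or.inr (Or.inl rfl)), 2 * c, by linarith⟩
      · exact ⟨-1, by simp, 2 * c + 1, by rw [hk] at hc ⊢; push_cast at hc ⊢; linarith⟩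
      · exact ⟨1, by simp, 2 * c - 1, by rw [hk] at hc ⊢; push_cast at hc ⊢; linarith⟩
    obtain ⟨r, hr, h8⟩ := h8
    have e2 : (d : ℤ) = 2 * e := by exact_mod_cast hed.symm
    have h9 : (q : ℤ) ∣ 2 * r - s := by
      rw [e2] at h5
      have := dvd_sub h5 (h8.mul_left 2)
      rwa [show 2 * (2 * (e : ℤ)) - s - 2 * (2 * e - r) = 2 * r - s by ring] at this
    have h10 : |2 * r - s| < q := by
      rw [abs_lt]
      rcases hr with rfl | rfl | rfl | rfl | rfl <;> rcases hs with rfl | rfl <;> constructor <;> linarith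
    have h11 := Int.eq_zero_of_abs_lt_dvd h9 h10
    rcases hr with rfl | rfl | rfl | rfl | rfl <;> rcases hs with rfl | rfl <;> omega

/-- **OUT row** -/
theorem outRow3 (h7 : 7 ≤ q) {w : X} (hw : orderOf w = q) (hc : Nat.card (Subgroup.centralizer ({w} : Set X)) = q)
    (hqq : ¬ q ^ 2 ∣ Nat.card X) (he : Nat.card X / q % q = (q - 1) / 2)
    (hZ : Subgroup.center X = ⊥) (hi : (MulAut.conj : X →* MulAut X).range.index = 2)
    (hO : ∀ α : MulAut X, α * α = 1 → α w = w → α = 1) : OutRow3 2 X :=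
  OutRow'.final ⟨hi.le, fun _ => Or.inl (outB h7 hw hc hqq he hZ hi hO)⟩

end Cfsg.Agent.H587.S8
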